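import Mathlib
import Cfsg.Agent.Lib.SuzukiTwo.Degree
import Cfsg.Agent.Lib.Char.Burnside

/-!
Perfect groups acting on an anisotropic pair of quadratic forms over the field with two elements act trivially.
-/

set_option autoImplicit false

namespace Cfsg.Agent.Lib.ThreeInvolAut

open Cfsg.Agent.Lib.SuzukiTwo (HasDegree)

universe u

/-- A perfect group with at most two prime divisors of its order is trivial. -/
theorem subsingleton_of_two_primes {R : Type u} [Group R] [Finite R] [Group.IsPerfect R] {p q : ℕ}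
    (hp : p.Prime) (hq : q.Prime) (h : ∀ r : ℕ, r.Prime → r ∣ Nat.card R → r = p ∨ r = q) :
    Subsingleton R := by
  by_contra hR
  rw [not_subsingleton_iff_nontrivial] at hR
  exact Group.IsPerfect.not_isSolvable R
    (Cfsg.Agent.Lib.Char.isSolvable_of_card_eq_two_primes hp hq _ R rfl h)

theorem hom_solvable_trivial {K : Type u} [Group K] [Group.IsPerfect K] {G : Type*} [Group G]
    [Group.IsSolvable G] (f : K →* G) (k : K) : f k = 1 := by
  haveI : Group.IsPerfect f.range := Group.IsPerfect.range f
  rcases subsingleton_or_nontrivial f.range with h | h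
  · exact congrArg Subtype.val (Subsingleton.elim (⟨f k, k, rfl⟩ : f.range) 1)
  · exact (Group.IsPerfect.not_isSolvable f.range inferInstance).elim

theorem perm_small {K : Type u} [Group K] [Group.IsPerfect K] {α : Type u} [Finite α]
    (hα : Nat.card α ≤ 4) (f : K →* Equiv.Perm α) (k : K) (a : α) : f k a = a := by
  haveI : Group.IsPerfect f.range := Group.IsPerfect.range f
  have hdvd : Nat.card f.range ∣ Nat.factorial 4 := by
    refine (Subgroup.card_subgroup_dvd_card f.range).trans ?_
    rw [Nat.card_perm]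
    exact Nat.factorial_dvd_factorial hα
  haveI := subsingleton_of_two_primes (R := f.range) Nat.prime_two Nat.prime_three fun r hr hd => by
    have h24 : r ∣ 2 ^ 3 * 3 := by
      have h := hd.trans hdvd
      simpa [Nat.factorial] using h
    rcases hr.dvd_mul.1 h24 with h | h
    · exact Or.inl ((Nat.prime_dvd_prime_iff_eq hr Nat.prime_two).1 (hr.dvd_of_dvd_pow h))
    · exact Or.inr ((Nat.prime_dvd_prime_iff_eq hr Nat.prime_three).1 h)
  have : f k = 1 := congrArg Subtype.val (Subsingleton.elim (⟨f k, k, rfl⟩ : f.range) 1)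
  rw [this, Equiv.Perm.one_apply]

/-- Permutation representation on an invariant set. -/
def setHom {K : Type u} [Group K] {W : Type u} [Group W] (φ : K →* MulAut W) (p : W → Prop)
    (hp : ∀ k x, p (φ k x) ↔ p x) : K →* Equiv.Perm {x // p x} where
  toFun k := (φ k).toEquiv.subtypeEquiv fun x => (hp k x).symm
  map_one' := by ext x; simp
  map_mul' a b := by ext x; simp

theorem setHom_apply {K : Type u} [Group K] {W : Type u} [Group W] (φ : K →* MulAut W) (p : W → Prop)
    (hp : ∀ k x, p (φ k x) ↔ p x) (k : K) (x : {x // p x}) : ((setHom φ p hp k x : {x // p x}) : W) = φ k x :=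
  rfl

theorem fix_small {K : Type u} [Group K] [Group.IsPerfect K] {W : Type u} [Group W] [Finite W]
    (φ : K →* MulAut W) (p : W → Prop) (hp : ∀ k x, p (φ k x) ↔ p x) (h4 : Nat.card {x // p x} ≤ 4)
    (k : K) (x : W) (hx : p x) : φ k x = x := by
  have h := congrArg Subtype.val (perm_small h4 (setHom φ p hp) k ⟨x, hx⟩)
  rwa [setHom_apply] at h

/-- If all displacements lie in a fixed solvable subgroup then the action is trivial. -/
theorem fix_of_diff {K : Type u} [Group K] [Group.IsPerfect K] {G : Type u} [Group G]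
    (φ : K →* MulAut G) (C : Subgroup G) [Group.IsSolvable C] (hfix : ∀ k, ∀ c ∈ C, φ k c = c)
    (x : G) (hx : ∀ k, x⁻¹ * φ k x ∈ C) (k : K) : φ k x = x := by
  let f : K →* C :=
    { toFun := fun k => ⟨x⁻¹ * φ k x, hx k⟩
      map_one' := Subtype.ext (by simp)
      map_mul' := fun a b => Subtype.ext (by
        show x⁻¹ * φ (a * b) x = x⁻¹ * φ a x * (x⁻¹ * φ b x)
        conv_lhs => rw [map_mul, MulAut.mul_apply, show φ b x = x * (x⁻¹ * φ b x) by group, map_mul,
          hfix a _ (hx b), ← mul_assoc]) }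
  have h : x⁻¹ * φ k x = 1 := congrArg Subtype.val (hom_solvable_trivial f k)
  exact (inv_mul_eq_one.1 h).symm

/-- Fixed points of an action. -/
def fixed {K : Type u} [Group K] {W : Type u} [Group W] (φ : K →* MulAut W) : Subgroup W where
  carrier := {x | ∀ k, φ k x = x}
  one_mem' k := map_one _
  mul_mem' ha hb k := by rw [map_mul, ha k, hb k]
  inv_mem' ha k := by rw [map_inv, ha k]

theorem mem_fixed {K : Type u} [Group K] {W : Type u} [Group W] {φ : K →* MulAut W} {x : W} :
    x ∈ fixed φ ↔ ∀ k, φ k x = x := Iff.rfl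

variable {K : Type u} [Group K] [Group.IsPerfect K]

/-- A large fixed subgroup forces a trivial action. -/
theorem fixed_big {W : Type u} [CommGroup W] [Finite W] (φ : K →* MulAut W)
    (h : Nat.card W ≤ 4 * Nat.card (fixed φ)) (k : K) (x : W) : φ k x = x := by
  set F := fixed φ
  have hq : Nat.card (W ⧸ F) ≤ 4 := by
    rw [Subgroup.card_eq_card_quotient_mul_card_subgroup F] at h
    exact Nat.le_of_mul_le_mul_right h Nat.card_pos
  have hF : ∀ k, ∀ a ∈ F, φ k a = a := fun k a ha => ha k
  have hwd : ∀ (k : K) (a b : W), QuotientGroup.leftRel F a b → QuotientGroup.leftRel F (φ k a) (φ k b) := by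
    intro k a b hab
    rw [QuotientGroup.leftRel_apply] at hab ⊢
    rwa [← map_inv, ← map_mul, hF k _ hab]
  let mp : K → W ⧸ F → W ⧸ F := fun k => Quotient.map' (φ k) (hwd k)
  have mp_mul : ∀ a b y, mp (a * b) y = mp a (mp b y) := fun a b y => by
    induction y using QuotientGroup.induction_on with
    | _ y => exact congrArg (QuotientGroup.mk (s := F)) (by rw [map_mul, MulAut.mul_apply])
  have mp_one : ∀ y, mp 1 y = y := fun y => by
    induction y using QuotientGroup.induction_on with
    | _ y => exact congrArg (QuotientGroup.mk (s := F)) (by rw [map_one, MulAut.one_apply])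
  let f : K →* Equiv.Perm (W ⧸ F) :=
    { toFun := fun k => ⟨mp k, mp k⁻¹, fun y => by rw [← mp_mul, inv_mul_cancel, mp_one],
        fun y => by rw [← mp_mul, mul_inv_cancel, mp_one]⟩
      map_one' := Equiv.ext mp_one
      map_mul' := fun a b => Equiv.ext (mp_mul a b) }
  refine fix_of_diff φ F hF x (fun k => ?_) k
  exact QuotientGroup.eq.1 (perm_small hq f k (x : W ⧸ F)).symm

variable {W A : Type u} [CommGroup W] [Finite W] [CommGroup A] [Finite A]

/-- An anisotropic quadratic map. -/
structure Aniso (q : W → A) : Prop where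
  sq : ∀ x : W, x * x = 1
  sqA : ∀ a : A, a * a = 1
  cardA : Nat.card A ≤ 4
  zero : ∀ x, q x = 1 → x = 1
  one : q 1 = 1
  bilin : ∀ u v w, q (u * v * w) * q (u * v) * q w =
    (q (u * w) * q u * q w) * (q (v * w) * q v * q w)

namespace Aniso

variable {q : W → A} (Q : Aniso q)
include Q

theorem four (x y z : W) :
    q (x * y * z) * q (x * y) * q (x * z) * q x = q (y * z) * q y * q z := by
  have hinv : ∀ a : A, a⁻¹ = a := fun a => inv_eq_of_mul_eq_one_right (Q.sqA a)
  have h := Q.bilin x y z
  have e : q (x * y * z) = q (x * z) * q x * q z * (q (y * z) * q y * q z) * (q (x * y) * q z)⁻¹ := by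
    rw [eq_mul_inv_iff_mul_eq, ← mul_assoc, h]
  rw [e]
  simp only [hinv]
  calc q (x * z) * q x * q z * (q (y * z) * q y * q z) * (q (x * y) * q z) * q (x * y) * q (x * z) * q x
      = (q (x * z) * q (x * z)) * (q x * q x) * (q z * q z) * (q (x * y) * q (x * y)) *
          (q (y * z) * q y * q z) := by ac_rfl
    _ = _ := by simp only [Q.sqA, one_mul]

theorem degree (χ : A →* Multiplicative (ZMod 2)) : HasDegree 2 fun x => (χ (q x)).toAdd + 1 := by
  intro a b x
  show ((χ (q (x * b * a))).toAdd + 1 + ((χ (q (x * b))).toAdd + 1)) +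
      ((χ (q (x * a))).toAdd + 1 + ((χ (q x)).toAdd + 1)) =
    ((χ (q (1 * b * a))).toAdd + 1 + ((χ (q (1 * b))).toAdd + 1)) +
      ((χ (q (1 * a))).toAdd + 1 + ((χ (q 1)).toAdd + 1))
  have h := congrArg (fun t => (χ t).toAdd) (Q.four x b a)
  have h' := congrArg (fun t => (χ t).toAdd) (Q.four 1 b a)
  simp only [map_mul, toAdd_mul] at h h'
  linear_combination h - h'

omit Q in
theorem exists_chi {H : Subgroup A} (hH : H.index ≤ 2) :
    ∃ χ : A →* Multiplicative (ZMod 2), ∀ a, (χ a).toAdd = 0 ↔ a ∈ H := by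
  have h0 : H.index ≠ 0 := Subgroup.index_ne_zero_of_finite
  rcases (by omega : H.index = 1 ∨ H.index = 2) with h | h
  · rw [Subgroup.index_eq_one] at h
    exact ⟨1, fun a => by simp [h]⟩
  classical
  refine ⟨MonoidHom.mk' (fun a => Multiplicative.ofAdd (if a ∈ H then (0 : ZMod 2) else 1)) fun a b => ?_,
    fun a => ?_⟩
  · apply Multiplicative.toAdd.injective
    have := Subgroup.mul_mem_iff_of_index_two h (a := a) (b := b)
    by_cases ha : a ∈ H <;> by_cases hb : b ∈ H <;> simp [ha, hb, this, CharTwo.add_self_eq_zero]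
  · by_cases ha : a ∈ H <;> simp [ha]

theorem even_count [Fintype W] {m : ℕ} (hW : Nat.card W = 2 ^ m) (hm : 3 ≤ m) {H : Subgroup A}
    (hH : H.index ≤ 2) : Even (Nat.card {x // q x ∈ H}) := by
  classical
  obtain ⟨χ, hχ⟩ := exists_chi hH
  have hs := (Q.degree χ).sum_eq_zero Q.sq hW (by omega)
  have hval : ∀ z : ZMod 2, z + 1 = if z = 0 then 1 else 0 := by decide
  simp only [hval, hχ, Finset.sum_boole] at hs
  rw [Nat.card_eq_fintype_card, Fintype.card_subtype]
  exact (ZMod.natCast_eq_zero_iff_even).1 hs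

theorem card_le [Fintype W] {m : ℕ} (hW : Nat.card W = 2 ^ m) : m ≤ 4 := by
  classical
  by_contra hm
  obtain ⟨H1, H2, h1, h2, h12⟩ : ∃ H1 H2 : Subgroup A, H1.index ≤ 2 ∧ H2.index ≤ 2 ∧ H1 ⊓ H2 = ⊥ := by
    by_cases hA : Nat.card A ≤ 2
    · exact ⟨⊥, ⊥, by rwa [Subgroup.index_bot], by rwa [Subgroup.index_bot], inf_idem _⟩
    obtain ⟨a, ha⟩ : ∃ a : A, a ≠ 1 := by
      by_contra! hall
      exact hA ((Finite.card_le_one_iff_subsingleton.2 ⟨fun x y => by rw [hall x, hall y]⟩).trans one_le_two)
    obtain ⟨b, hb, hba⟩ : ∃ b : A, b ≠ 1 ∧ b ≠ a := by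
      by_contra! hall
      apply hA
      have := Nat.card_le_card_of_surjective (![1, a] : Fin 2 → A) fun x => by
        by_cases hx : x = 1
        · exact ⟨0, hx.symm⟩
        · exact ⟨1, (hall x hx).symm⟩
      simpa using this
    have hcard : ∀ c : A, c ≠ 1 → Nat.card (Subgroup.zpowers c) = 2 := fun c hc => by
      rw [Nat.card_zpowers]
      exact orderOf_eq_prime (by rw [_root_.sq]; exact Q.sqA c) hc
    have hidx : ∀ c : A, c ≠ 1 → (Subgroup.zpowers c).index ≤ 2 := fun c hc => by
      have := (Subgroup.zpowers c).card_mul_index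
      rw [hcard c hc] at this
      have := Q.cardA
      omega
    refine ⟨_, _, hidx a ha, hidx b hb, ?_⟩
    rw [eq_bot_iff]
    rintro x ⟨hx, hx'⟩
    have hmem : ∀ c y : A, y ∈ Subgroup.zpowers c → y = 1 ∨ y = c := fun c y hy => by
      obtain ⟨n, rfl⟩ := hy
      rcases Int.even_or_odd' n with ⟨k, rfl | rfl⟩
      · refine Or.inl ?_
        show c ^ (2 * k) = 1
        rw [zpow_mul, zpow_two, Q.sqA, one_zpow]
      · refine Or.inr ?_
        show c ^ (2 * k + 1) = c
        rw [zpow_add, zpow_mul, zpow_two, Q.sqA, one_zpow, one_mul, zpow_one]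
    rcases hmem a x hx with r | r
    · exact Subgroup.mem_bot.2 r
    rcases hmem b x hx' with r' | r'
    · exact Subgroup.mem_bot.2 r'
    · exact absurd (r'.symm.trans r) hba
  obtain ⟨χ1, hχ1⟩ := exists_chi h1
  obtain ⟨χ2, hχ2⟩ := exists_chi h2
  have hs := ((Q.degree χ1).mul (Q.degree χ2)).sum_eq_zero Q.sq hW (by omega)
  have key : ∀ x : W, ((χ1 (q x)).toAdd + 1) * ((χ2 (q x)).toAdd + 1) = if x = 1 then 1 else 0 := fun x => by
    have hval : ∀ z : ZMod 2, z + 1 = if z = 0 then 1 else 0 := by decide
    rw [hval, hval, ite_zero_mul_ite_zero, mul_one]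
    refine if_congr ⟨fun h => Q.zero x ?_, fun h => ?_⟩ rfl rfl
    · rw [← Subgroup.mem_bot, ← h12]
      exact ⟨(hχ1 _).1 h.1, (hχ2 _).1 h.2⟩
    · subst h
      exact ⟨(hχ1 _).2 (Q.one ▸ one_mem H1), (hχ2 _).2 (Q.one ▸ one_mem H2)⟩
  simp only [key, Finset.sum_ite_eq', Finset.mem_univ, if_true] at hs
  exact one_ne_zero hs

theorem not_const {a : A} (h : ∀ x, x ≠ 1 → q x = a) : Nat.card W ≤ 4 := by
  by_contra hc
  obtain ⟨u, hu⟩ : ∃ u : W, u ≠ 1 := by
    by_contra! hall
    have := Finite.card_le_one_iff_subsingleton.2 (⟨fun x y => by rw [hall x, hall y]⟩ : Subsingleton W)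
    omega
  obtain ⟨v, hv1, hvu⟩ : ∃ v : W, v ≠ 1 ∧ v ≠ u := by
    by_contra! hall
    have := Nat.card_le_card_of_surjective (![1, u] : Fin 2 → W) fun x => by
      by_cases hx : x = 1
      · exact ⟨0, hx.symm⟩
      · exact ⟨1, (hall x hx).symm⟩
    simp at this; omega
  obtain ⟨w, hw1, hwu, hwv, hwuv⟩ : ∃ w : W, w ≠ 1 ∧ w ≠ u ∧ w ≠ v ∧ w ≠ u * v := by
    by_contra! hall
    have := Nat.card_le_card_of_surjective (![1, u, v, u * v] : Fin 4 → W) fun x => by
      by_cases h1 : x = 1
      · exact ⟨0, h1.symm⟩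
      by_cases h2 : x = u
      · exact ⟨1, h2.symm⟩
      by_cases h3 : x = v
      · exact ⟨2, h3.symm⟩
      exact ⟨3, (hall x h1 h2 h3).symm⟩
    simp at this; omega
  have hne : ∀ x y : W, x ≠ y → x * y ≠ 1 := fun x y hxy e =>
    hxy (mul_right_cancel (e.trans (Q.sq y).symm))
  have h3 : u * v * w ≠ 1 := hne _ _ (Ne.symm hwuv)
  have hb := Q.bilin u v w
  rw [h _ h3, h _ (hne u v (Ne.symm hvu)), h _ (hne u w (Ne.symm hwu)), h _ (hne v w (Ne.symm hwv)), h u hu,
    h v hv1, h w hw1] at hb
  have ha : a = 1 := by simpa [Q.sqA, mul_assoc] using hb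
  exact hu (Q.zero u ((h u hu).trans ha))

variable (φ : K →* MulAut W) (hφ : ∀ k x, q (φ k x) = q x)
include hφ

theorem fix_fibre {a : A} (h : Nat.card {x // q x = a} ≤ 4) {x : W} (hx : q x = a) : x ∈ fixed φ :=
  fun k => fix_small φ (fun x => q x = a) (fun k x => by rw [hφ]) h k x hx

theorem pairs {a : A} (ha : a ≠ 1) (h5 : Nat.card {x // q x = a} = 5)
    (h5' : ∀ c : A, c ≠ 1 → Nat.card {x // q x = c} = 5) (hW : Nat.card W = 16) (k : K) (x : W) :
    φ k x = x := by
  classical
  let α := {x // q x = a}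
  letI : Fintype α := Fintype.ofFinite _
  let f : K →* Equiv.Perm α := setHom φ (fun x => q x = a) (fun k x => by rw [hφ])
  have hc5 : Fintype.card α = 5 := by rw [← Nat.card_eq_fintype_card]; exact h5
  rcases subsingleton_or_nontrivial f.range with hR | hR
  · -- the fibre is fixed
    refine fixed_big φ ?_ k x
    have hsub : ∀ y : W, q y = a → y ∈ fixed φ := fun y hy k => by
      have h1 : f k = 1 := congrArg Subtype.val (Subsingleton.elim (⟨f k, k, rfl⟩ : f.range) 1)
      have h2 := congrArg (fun g : Equiv.Perm α => (g ⟨y, hy⟩ : W)) h1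
      simp only [Equiv.Perm.one_apply] at h2
      rwa [show f k = setHom φ _ _ k from rfl, setHom_apply] at h2
    have := Nat.card_le_card_of_injective (fun y : α => (⟨y.1, hsub y y.2⟩ : fixed φ))
      fun y z e => Subtype.ext (congrArg (fun t : fixed φ => (t : W)) e)
    have h5α : Nat.card α = 5 := h5
    omega
  haveI : Group.IsPerfect f.range := Group.IsPerfect.range f
  have halt : ∀ g : Equiv.Perm α, Equiv.Perm.sign g = 1 → g ∈ f.range := by
    have hle : f.range ≤ alternatingGroup α := fun g hg => by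
      have hs : (Equiv.Perm.sign.comp f.range.subtype) ⟨g, hg⟩ = 1 := by
        rcases subsingleton_or_nontrivial (Equiv.Perm.sign.comp f.range.subtype).range with h | h
        · exact congrArg Subtype.val (Subsingleton.elim
            (⟨(Equiv.Perm.sign.comp f.range.subtype) ⟨g, hg⟩, ⟨g, hg⟩, rfl⟩ :
              (Equiv.Perm.sign.comp f.range.subtype).range) 1)
        · haveI : Group.IsPerfect (Equiv.Perm.sign.comp f.range.subtype).range := Group.IsPerfect.range _
          exact (Group.IsPerfect.not_isSolvable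
            (Equiv.Perm.sign.comp f.range.subtype).range inferInstance).elim
      exact hs
    have hA : Nat.card (alternatingGroup α) = 60 := by
      haveI : Nontrivial α := Fintype.one_lt_card_iff_nontrivial.1 (by omega)
      rw [nat_card_alternatingGroup, Nat.card_eq_fintype_card (α := α), hc5]
      rfl
    set R := f.range.subgroupOf (alternatingGroup α) with hRdef
    have hRc : Nat.card R = Nat.card f.range := Nat.card_congr (Subgroup.subgroupOfEquivOfLe hle).toEquiv
    have hmul : Nat.card R * R.index = 60 := by rw [R.card_mul_index, hA]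
    have hidx : R.index = 1 := by
      haveI : IsSimpleGroup (alternatingGroup α) := alternatingGroup.isSimpleGroup h5.ge
      have hnot2 : R.index ≠ 2 := fun h2 => by
        haveI := Subgroup.normal_of_index_eq_two h2
        rcases IsSimpleGroup.eq_bot_or_eq_top_of_normal R inferInstance with h | h
        · rw [h, Subgroup.index_bot, hA] at h2; omega
        · rw [h, Subgroup.index_top] at h2; omega
      by_contra h1
      have hdv : R.index ∣ 60 := ⟨Nat.card R, by rw [← hmul, mul_comm]⟩
      have hle60 : R.index ≤ 60 := Nat.le_of_dvd (by norm_num) hdv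
      have h0 : R.index ≠ 0 := Subgroup.index_ne_zero_of_finite
      have key : ∀ d ∈ Nat.divisors 60, d ≠ 1 → d ≠ 2 → ∃ p ∈ ({2, 3, 5} : Finset ℕ),
          ¬ p ∣ 60 / d := by decide
      obtain ⟨p, hp, hpd⟩ := key R.index (Nat.mem_divisors.2 ⟨hdv, by norm_num⟩) h1 hnot2
      have hcR : Nat.card f.range = 60 / R.index := by
        rw [← hRc, ← hmul, Nat.mul_div_cancel _ (Nat.pos_of_ne_zero h0)]
      have hdvd : Nat.card f.range ∣ 60 := hRc ▸ ⟨R.index, hmul.symm⟩
      have h235 : ∀ r : ℕ, r.Prime → r ∣ Nat.card f.range → (r = 2 ∨ r = 3 ∨ r = 5) ∧ r ≠ p := by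
        intro r hr hrd
        refine ⟨?_, fun e => hpd (e ▸ hcR ▸ hrd)⟩
        have h60 : r ∣ 2 ^ 2 * (3 * 5) := hrd.trans hdvd
        rcases hr.dvd_mul.1 h60 with h | h
        · exact Or.inl ((Nat.prime_dvd_prime_iff_eq hr Nat.prime_two).1 (hr.dvd_of_dvd_pow h))
        rcases hr.dvd_mul.1 h with h | h
        · exact Or.inr (Or.inl ((Nat.prime_dvd_prime_iff_eq hr Nat.prime_three).1 h))
        · exact Or.inr (Or.inr ((Nat.prime_dvd_prime_iff_eq hr Nat.prime_five).1 h))
      have : Subsingleton f.range := by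
        simp only [Finset.mem_insert, Finset.mem_singleton] at hp
        rcases hp with rfl | rfl | rfl
        · exact subsingleton_of_two_primes Nat.prime_three Nat.prime_five fun r hr hd => by
            have := h235 r hr hd; omega
        · exact subsingleton_of_two_primes Nat.prime_two Nat.prime_five fun r hr hd => by
            have := h235 r hr hd; omega
        · exact subsingleton_of_two_primes Nat.prime_two Nat.prime_three fun r hr hd => by
            have := h235 r hr hd; omega
      exact not_nontrivial_iff_subsingleton.2 this hR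
    intro g hg
    have : (⟨g, hg⟩ : alternatingGroup α) ∈ R := by rw [Subgroup.index_eq_one.1 hidx]; exact Subgroup.mem_top _
    exact this
  exfalso
  -- the even permutations are transitive on pairs
  have hb : ∀ y z y' z' : α, y ≠ z → y' ≠ z' → q (y.1 * z.1) = q (y'.1 * z'.1) := by
    intro y z y' z' hyz hyz'
    obtain ⟨g, hg1, hg2⟩ : ∃ g : Equiv.Perm α, g y = y' ∧ g z = z' := by
      refine ⟨Equiv.swap (Equiv.swap y y' z) z' * Equiv.swap y y', ?_, ?_⟩
      · rw [Equiv.Perm.mul_apply, Equiv.swap_apply_left]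
        refine Equiv.swap_apply_of_ne_of_ne (fun e => hyz ?_) hyz'
        exact (Equiv.swap y y').injective ((Equiv.swap_apply_left y y').trans e)
      · rw [Equiv.Perm.mul_apply, Equiv.swap_apply_left]
    have hsg : ∀ g : Equiv.Perm α, Equiv.Perm.sign g = 1 →
        q (y.1 * z.1) = q ((g y).1 * (g z).1) := fun g hg => by
      obtain ⟨k, rfl⟩ := halt g hg
      show _ = q (φ k y.1 * φ k z.1)
      rw [← map_mul, hφ]
    rcases Int.units_eq_one_or (Equiv.Perm.sign g) with hs | hs
    · have := hsg g hs; rwa [hg1, hg2] at this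
    · have := hsg (Equiv.swap y' z' * g) (by rw [Equiv.Perm.sign_mul, Equiv.Perm.sign_swap hyz', hs]; rfl)
      rw [Equiv.Perm.mul_apply, Equiv.Perm.mul_apply, hg1, hg2, Equiv.swap_apply_left,
        Equiv.swap_apply_right, mul_comm z'.1] at this
      exact this
  let e := (Fintype.equivFinOfCardEq hc5).symm
  set c := q ((e 0).1 * (e 1).1) with hc
  have hcc : ∀ y z : α, y ≠ z → q (y.1 * z.1) = c := fun y z h =>
    hb y z (e 0) (e 1) h (e.injective.ne (by decide))
  have hne : ∀ y z : W, y ≠ z → y * z ≠ 1 := fun y z hxy e =>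
    hxy (mul_right_cancel (e.trans (Q.sq z).symm))
  have hc1 : c ≠ 1 := fun h => hne _ _ (fun r => e.injective.ne (by decide : (0 : Fin 5) ≠ 1) (Subtype.ext r))
    (Q.zero _ h)
  by_cases hca : c = a
  · let S : Subgroup W :=
      { carrier := {y | y = 1 ∨ q y = a}
        one_mem' := Or.inl rfl
        mul_mem' := fun {y z} hy hz => by
          rcases hy with rfl | hy
          · simpa using hz
          rcases hz with rfl | hz
          · simpa using Or.inr hy
          by_cases hyz : y = z
          · subst hyz; exact Or.inl (Q.sq y)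
          · exact Or.inr ((hcc ⟨y, hy⟩ ⟨z, hz⟩ (fun r => hyz (congrArg Subtype.val r))).trans hca)
        inv_mem' := fun {y} hy => by rwa [inv_eq_of_mul_eq_one_right (Q.sq y)] }
    have h6 : Nat.card S = 6 := by
      show Nat.card ({y | y = 1 ∨ q y = a} : Set W) = 6
      rw [Nat.card_coe_set_eq, show ({y | y = 1 ∨ q y = a} : Set W) = insert 1 {y | q y = a} from rfl,
        Set.ncard_insert_of_notMem (s := {y | q y = a}) (fun h => ha ((h : q 1 = a).symm.trans Q.one)), ← Nat.card_coe_set_eq]
      exact congrArg (· + 1) h5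
    have := Subgroup.card_subgroup_dvd_card S
    rw [h6, hW] at this
    norm_num at this
  · have key : ∀ y z z' w : α, y ≠ z → z' ≠ w → z' ≠ y → z' ≠ z → y.1 * z.1 = z'.1 * w.1 → False := by
      intro y z z' w hyz hzw hy' hz' heq
      have hw : w.1 = y.1 * z.1 * z'.1 := by
        rw [heq, mul_comm z'.1, mul_assoc, Q.sq, mul_one]
      have hb := Q.bilin y.1 z.1 z'.1
      rw [← hw, w.2, hcc y z hyz, z'.2, hcc y z' (Ne.symm hy'), hcc z z' (Ne.symm hz'), y.2, z.2,
        mul_assoc c a a, Q.sqA] at hb
      exact hc1 (by rwa [mul_comm a c, mul_assoc, Q.sqA, mul_one] at hb)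
    have hinj : Function.Injective (![⟨(e 0).1 * (e 1).1, hcc _ _ (e.injective.ne (by decide))⟩,
        ⟨(e 0).1 * (e 2).1, hcc _ _ (e.injective.ne (by decide))⟩,
        ⟨(e 0).1 * (e 3).1, hcc _ _ (e.injective.ne (by decide))⟩,
        ⟨(e 0).1 * (e 4).1, hcc _ _ (e.injective.ne (by decide))⟩,
        ⟨(e 1).1 * (e 2).1, hcc _ _ (e.injective.ne (by decide))⟩,
        ⟨(e 1).1 * (e 3).1, hcc _ _ (e.injective.ne (by decide))⟩] : Fin 6 → {y // q y = c}) := by
      intro i j h
      have h' := congrArg Subtype.val h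
      fin_cases i <;> fin_cases j <;>
        simp only [Fin.zero_eta, Fin.mk_one, Fin.reduceFinMk, Matrix.cons_val_zero, Matrix.cons_val_one,
          Matrix.cons_val] at h' ⊢
      all_goals exfalso
      all_goals first
        | exact absurd (Subtype.ext (mul_left_cancel h')) (e.injective.ne (by decide))
        | exact key _ _ _ _ (e.injective.ne (by decide)) (e.injective.ne (by decide))
            (e.injective.ne (by decide)) (e.injective.ne (by decide)) h'
        | exact key _ _ _ _ (e.injective.ne (by decide)) (e.injective.ne (by decide))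
            (e.injective.ne (by decide)) (e.injective.ne (by decide)) h'.symm
    have := Nat.card_le_card_of_injective _ hinj
    rw [h5' c hc1] at this
    simp at this

theorem trivial_action {m : ℕ} (hm : Nat.card W = 2 ^ m) (k : K) (x : W) : φ k x = x := by
  classical
  letI := Fintype.ofFinite W
  letI := Fintype.ofFinite A
  have hF : 1 ≤ Nat.card (fixed φ) := Nat.card_pos
  by_cases h4 : Nat.card W ≤ 4
  · exact fixed_big φ (by omega) k x
  have hm3 : 3 ≤ m := by
    by_contra h
    have : 2 ^ m ≤ 2 ^ 2 := Nat.pow_le_pow_right (by norm_num) (by omega)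
    omega
  have hne : ∀ y z : W, y ≠ z → y * z ≠ 1 := fun y z hxy e =>
    hxy (mul_right_cancel (e.trans (Q.sq z).symm))
  -- fibres
  let s : A → Finset W := fun a => Finset.univ.filter fun y => q y = a
  have hs : ∀ a, Nat.card {y // q y = a} = (s a).card := fun a => by
    rw [Nat.card_eq_fintype_card, Fintype.card_subtype]
  let As : Finset A := Finset.univ.erase 1
  have hAs : As.card ≤ 3 := by
    rw [Finset.card_erase_of_mem (Finset.mem_univ _), Finset.card_univ, ← Nat.card_eq_fintype_card]
    have := Q.cardA; omega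
  have hsum : ∑ a ∈ As, (s a).card + 1 = 2 ^ m := by
    rw [← hm, Nat.card_eq_fintype_card, ← Finset.card_univ (α := W),
      Finset.card_eq_sum_card_fiberwise (f := q) (t := Finset.univ) fun _ _ => Finset.mem_coe.2 (Finset.mem_univ _),
      ← Finset.sum_erase_add _ _ (Finset.mem_univ (1 : A))]
    congr 1
    rw [show (Finset.univ.filter fun y => q y = 1) = {1} from
      Finset.ext fun y => by simpa using ⟨Q.zero y, fun h => h ▸ Q.one⟩]
    rfl
  have hm' := Q.card_le hm
  rcases (by omega : m = 3 ∨ m = 4) with rfl | rfl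
  · -- order eight
    obtain ⟨a, ha, ha0, ha4⟩ : ∃ a ∈ As, (s a).card ≠ 0 ∧ (s a).card ≤ 4 := by
      by_contra! hbig
      obtain ⟨a, ha, ha0⟩ : ∃ a ∈ As, (s a).card ≠ 0 :=
        Finset.exists_ne_zero_of_sum_ne_zero (by omega)
      have hsplit := Finset.add_sum_erase As (fun a => (s a).card) ha
      have ha5 := hbig a ha ha0
      apply h4
      refine Q.not_const (a := a) fun y hy => ?_
      by_contra hya
      have hmem : q y ∈ As.erase a := Finset.mem_erase.2 ⟨hya, Finset.mem_erase.2
        ⟨fun h => hy (Q.zero y h), Finset.mem_univ _⟩⟩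
      have hy0 : (s (q y)).card ≠ 0 := Finset.card_ne_zero.2 ⟨y, by simp [s]⟩
      have h5 := hbig _ (Finset.mem_of_mem_erase hmem) hy0
      have := Finset.single_le_sum (f := fun a => (s a).card) (fun _ _ => Nat.zero_le _) hmem
      omega
    obtain ⟨y, hy⟩ := Finset.card_pos.1 (Nat.pos_of_ne_zero ha0)
    simp only [s, Finset.mem_filter, Finset.mem_univ, true_and] at hy
    have hy1 : y ≠ 1 := fun e => (Finset.mem_erase.1 ha).1 (by rw [← hy, e, Q.one])
    have hyF : y ∈ fixed φ := Q.fix_fibre φ hφ (by rw [hs]; exact ha4) hy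
    refine fixed_big φ ?_ k x
    have := Nat.card_le_card_of_injective (![1, ⟨y, hyF⟩] : Fin 2 → fixed φ) fun i j h => by
      have h' := congrArg (fun t : fixed φ => (t : W)) h
      fin_cases i <;> fin_cases j <;> simp [hy1, Ne.symm hy1] at h' ⊢
    rw [Nat.card_fin] at this
    omega
  -- order sixteen
  have hA4 : Nat.card A = 4 := by
    by_contra hA
    have hA3 : Nat.card A ≤ 2 := by
      have := Q.cardA
      rcases Nat.lt_or_ge (Nat.card A) 3 with h | h
      · omega
      exfalso
      obtain ⟨a, ha⟩ : ∃ a : A, a ≠ 1 := by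
        by_contra! hall
        have := Finite.card_le_one_iff_subsingleton.2 (⟨fun x y => by rw [hall x, hall y]⟩ : Subsingleton A)
        omega
      have h2 : 2 ∣ Nat.card A := by
        rw [← orderOf_eq_prime (p := 2) (by rw [_root_.sq]; exact Q.sqA a) ha]
        exact orderOf_dvd_natCard a
      omega
    apply h4
    obtain ⟨y, hy⟩ : ∃ y : W, y ≠ 1 := by
      by_contra! hall
      have := Finite.card_le_one_iff_subsingleton.2 (⟨fun x y => by rw [hall x, hall y]⟩ : Subsingleton W)
      omega
    refine Q.not_const (a := q y) fun z hz => ?_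
    by_contra hzy
    have hinj : Function.Injective (![1, q y, q z] : Fin 3 → A) := by
      have h1 : q y ≠ 1 := fun h => hy (Q.zero y h)
      have h2 : q z ≠ 1 := fun h => hz (Q.zero z h)
      intro i j h
      fin_cases i <;> fin_cases j <;> simp [h1, Ne.symm h1, h2, Ne.symm h2, hzy, Ne.symm hzy] at h ⊢
    have := Nat.card_le_card_of_injective _ hinj
    rw [Nat.card_fin] at this; omega
  have hodd : ∀ a ∈ As, Odd (s a).card := by
    intro a ha
    have ha1 := (Finset.mem_erase.1 ha).1
    let H : Subgroup A :=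
      { carrier := {c | c = 1 ∨ c = a}
        one_mem' := Or.inl rfl
        mul_mem' := fun {c d} hc hd => by
          rcases hc with rfl | rfl <;> rcases hd with rfl | rfl <;> simp [Q.sqA]
        inv_mem' := fun {c} hc => by rwa [inv_eq_of_mul_eq_one_right (Q.sqA c)] }
    have hH : Nat.card H = 2 := by
      show Nat.card ({1, a} : Set A) = 2
      rw [Nat.card_coe_set_eq, Set.ncard_pair (Ne.symm ha1)]
    have hidx : H.index ≤ 2 := by
      have := H.card_mul_index
      rw [hH, hA4] at this; omega
    have he := Q.even_count hm (by norm_num) hidx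
    have hcard : Nat.card {y // q y ∈ H} = (s a).card + 1 := by
      rw [Nat.card_eq_fintype_card, Fintype.card_subtype]
      rw [show (Finset.univ.filter fun y => q y ∈ H) = insert 1 (s a) from Finset.ext fun y => by
        simp only [Finset.mem_filter, Finset.mem_univ, true_and, Finset.mem_insert, s]
        exact ⟨fun h => h.imp (Q.zero y) id, fun h => h.imp (fun e => (congrArg q e).trans Q.one) id⟩]
      exact Finset.card_insert_of_notMem (by simpa [s, Q.one] using Ne.symm ha1)
    rw [hcard] at he
    exact Nat.not_even_iff_odd.1 fun h => Nat.not_even_iff_odd.2 (h.add_one) he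
  -- no fibre of size one
  have hone : ∀ a ∈ As, (s a).card ≠ 1 := by
    intro a ha hc
    have ha1 := (Finset.mem_erase.1 ha).1
    obtain ⟨v, hv⟩ := Finset.card_eq_one.1 hc
    have hmem : ∀ y, q y = a ↔ y = v := fun y => by
      have := Finset.ext_iff.1 hv y
      simpa [s] using this
    let H : Subgroup A :=
      { carrier := {c | c = 1 ∨ c = a}
        one_mem' := Or.inl rfl
        mul_mem' := fun {c d} hc hd => by
          rcases hc with rfl | rfl <;> rcases hd with rfl | rfl <;> simp [Q.sqA]
        inv_mem' := fun {c} hc => by rwa [inv_eq_of_mul_eq_one_right (Q.sqA c)] }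
    have hH : Nat.card H = 2 := by
      show Nat.card ({1, a} : Set A) = 2
      rw [Nat.card_coe_set_eq, Set.ncard_pair (Ne.symm ha1)]
    have hidx : H.index ≤ 2 := by
      have := H.card_mul_index
      rw [hH, hA4] at this; omega
    obtain ⟨χ, hχ⟩ := exists_chi hidx
    have hex : ∀ l : List W, l.length ≤ 15 → ∃ y : W, y ∉ l := fun l hl => by
      by_contra! hall
      have h1 := Finset.card_le_card (show (Finset.univ : Finset W) ⊆ l.toFinset from fun y _ => by simpa using hall y)
      rw [Finset.card_univ, ← Nat.card_eq_fintype_card, hm] at h1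
      have := l.toFinset_card_le
      omega
    obtain ⟨y, hy⟩ := hex [1, v] (by norm_num)
    obtain ⟨z, hz⟩ := hex [1, v, y, v * y] (by norm_num)
    obtain ⟨t, ht⟩ := hex [1, y, z, y * z, v, v * y, v * z, v * (y * z)] (by norm_num)
    simp only [List.mem_cons, List.not_mem_nil, or_false, not_or] at hy hz ht
    have d := congrArg (fun r => (χ r).toAdd) (Q.four t y z)
    simp only [map_mul, toAdd_mul] at d
    have one' : ∀ r, r ≠ 1 → r ≠ v → (χ (q r)).toAdd = 1 := fun r h1 h2 => by
      have hn : (χ (q r)).toAdd ≠ 0 := fun h => ((hχ _).1 h).elim (fun e => h1 (Q.zero r e))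
        fun e => h2 ((hmem r).1 e)
      generalize (χ (q r)).toAdd = w at hn
      revert hn; revert w; decide
    have hm2 : ∀ r u : W, r * u = 1 → r = u := fun r u h => by
      by_contra hne'; exact hne r u hne' h
    have hm3' : ∀ r u w : W, r * u = w → r = w * u := fun r u w h => by
      rw [← h, mul_assoc, Q.sq, mul_one]
    rw [one' (t * y * z) (fun h => ht.2.2.2.1 (hm2 t (y * z) (by rw [← mul_assoc]; exact h)))
        (fun h => ht.2.2.2.2.2.2.2 (hm3' t (y * z) v (by rw [← mul_assoc]; exact h))),
      one' (t * y) (fun h => ht.2.1 (hm2 t y h)) (fun h => ht.2.2.2.2.2.1 (hm3' t y v h)),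
      one' (t * z) (fun h => ht.2.2.1 (hm2 t z h)) (fun h => ht.2.2.2.2.2.2.1 (hm3' t z v h)),
      one' t ht.1 ht.2.2.2.2.1,
      one' (y * z) (fun h => hz.2.2.1 (hm2 y z h).symm) (fun h => hz.2.2.2 (hm3' z y v (by rw [mul_comm]; exact h))),
      one' y hy.1 hy.2, one' z hz.1 hz.2.1] at d
    revert d; decide
  by_cases h3 : ∃ a ∈ As, (s a).card = 3
  · obtain ⟨a, ha, hc⟩ := h3
    have ha1 := (Finset.mem_erase.1 ha).1
    refine fixed_big φ ?_ k x
    have h4' : (insert 1 (s a)).card = 4 := by
      rw [Finset.card_insert_of_notMem (by simpa [s, Q.one] using Ne.symm ha1), hc]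
    have hsub : ∀ y ∈ insert 1 (s a), y ∈ fixed φ := fun y hy => by
      rcases Finset.mem_insert.1 hy with rfl | hy
      · exact one_mem _
      · exact Q.fix_fibre φ hφ (a := a) (by rw [hs, hc]; norm_num) (by simpa [s] using hy)
    have := Nat.card_le_card_of_injective (fun y : (insert 1 (s a) : Finset W) => (⟨y.1, hsub y y.2⟩ : fixed φ))
      fun y z e => Subtype.ext (congrArg (fun t : fixed φ => (t : W)) e)
    rw [Nat.card_eq_fintype_card (α := (insert 1 (s a) : Finset W)), Fintype.card_coe, h4'] at this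
    omega
  push Not at h3
  have h5 : ∀ a ∈ As, 5 ≤ (s a).card := fun a ha => by
    obtain ⟨j, hj⟩ := hodd a ha
    have := hone a ha; have := h3 a ha
    omega
  have h5' : ∀ a ∈ As, (s a).card = 5 := fun a ha => by
    have hsplit := Finset.add_sum_erase As (fun a => (s a).card) ha
    have hlow : (As.erase a).card * 5 ≤ ∑ b ∈ As.erase a, (s b).card := by
      rw [← smul_eq_mul, ← Finset.sum_const]
      exact Finset.sum_le_sum fun b hb => h5 b (Finset.mem_of_mem_erase hb)
    have hc : As.card = 3 := by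
      rw [Finset.card_erase_of_mem (Finset.mem_univ _), Finset.card_univ, ← Nat.card_eq_fintype_card, hA4]
    rw [Finset.card_erase_of_mem ha, hc] at hlow
    have := h5 a ha
    omega
  obtain ⟨a, ha⟩ : As.Nonempty := Finset.card_pos.1 (by
    rw [Finset.card_erase_of_mem (Finset.mem_univ _), Finset.card_univ, ← Nat.card_eq_fintype_card, hA4]
    norm_num)
  exact Q.pairs φ hφ (Finset.mem_erase.1 ha).1 (by rw [hs, h5' a ha])
    (fun c hc => by rw [hs, h5' c (Finset.mem_erase.2 ⟨hc, Finset.mem_univ _⟩)]) (by rw [hm]; norm_num) k x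

end Aniso

end Cfsg.Agent.Lib.ThreeInvolAut
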