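import Cfsg.Agent.Lib.ThreeInvolAut.Aniso
import Mathlib

/-!
Perfect groups of automorphisms of 2-groups with at most three involutions are trivial.
-/

set_option autoImplicit false

namespace Cfsg.Agent.Lib.ThreeInvolAut

universe u

/-- Restriction of an action to an invariant subgroup. -/
def restrict {K : Type u} [Group K] {X : Type u} [Group X] (φ : K →* MulAut X) (C : Subgroup X)
    (hC : ∀ k, ∀ c ∈ C, φ k c ∈ C) : K →* MulAut C where
  toFun k :=
    { toFun := fun c => ⟨φ k c, hC k c c.2⟩
      invFun := fun c => ⟨φ k⁻¹ c, hC k⁻¹ c c.2⟩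
      left_inv := fun c => Subtype.ext (by
        show φ k⁻¹ (φ k c) = c
        rw [← MulAut.mul_apply, ← map_mul, inv_mul_cancel, map_one, MulAut.one_apply])
      right_inv := fun c => Subtype.ext (by
        show φ k (φ k⁻¹ c) = c
        rw [← MulAut.mul_apply, ← map_mul, mul_inv_cancel, map_one, MulAut.one_apply])
      map_mul' := fun a b => Subtype.ext (map_mul (φ k) (a : X) (b : X)) }
  map_one' := by ext c; simp
  map_mul' a b := by ext c; simp

theorem restrict_apply {K : Type u} [Group K] {X : Type u} [Group X] (φ : K →* MulAut X) (C : Subgroup X)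
    (hC : ∀ k, ∀ c ∈ C, φ k c ∈ C) (k : K) (c : C) : ((restrict φ C hC k c : C) : X) = φ k c := rfl

theorem main : ∀ n : ℕ, ∀ (X : Type u) [Group X] [Finite X], Nat.card X = n → IsPGroup 2 X →
    Nat.card {x : X // x * x = 1} ≤ 4 → ∀ (K : Type u) [Group K] [Group.IsPerfect K] (φ : K →* MulAut X)
      (k : K) (x : X), φ k x = x := by
  intro n
  induction n using Nat.strong_induction_on with
  | _ n ih =>
    intro X _ _ hn hX h4 K _ _ φ
    classical
    haveI : Fact (Nat.Prime 2) := ⟨Nat.prime_two⟩
    haveI : Group.IsNilpotent X := hX.isNilpotent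
    rcases subsingleton_or_nontrivial X with hsub | hnt
    · intro k x; exact Subsingleton.elim _ _
    have hres : ∀ C : Subgroup X, C ≠ ⊤ → (∀ k, ∀ c ∈ C, φ k c ∈ C) → ∀ k, ∀ c ∈ C, φ k c = c := by
      intro C hC hinv k c hc
      have hlt : Nat.card C < n := by
        rw [← hn]
        exact (Subgroup.card_le_card_group C).lt_of_ne fun e => hC (Subgroup.eq_top_of_card_eq C e)
      have h4' : Nat.card {y : C // y * y = 1} ≤ 4 :=
        (Nat.card_le_card_of_injective (fun y : {y : C // y * y = 1} =>
          (⟨(y.1 : X), congrArg Subtype.val y.2⟩ : {x : X // x * x = 1})) fun a b e =>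
          Subtype.ext (Subtype.ext (congrArg (fun t : {x : X // x * x = 1} => t.1) e))).trans h4
      exact congrArg Subtype.val
        (ih _ hlt C rfl (hX.to_subgroup C) h4' K (restrict φ C hinv) k ⟨c, hc⟩)
    -- a normal fixed subgroup confines the displacements to its centralizer
    have hdiff : ∀ S : Subgroup X, S.Normal → (∀ k, ∀ s ∈ S, φ k s = s) →
        ∀ k x, x⁻¹ * φ k x ∈ Subgroup.centralizer (S : Set X) := by
      intro S hS hfix k x
      rw [Subgroup.mem_centralizer_iff]
      intro s hs
      have h := hfix k _ (hS.conj_mem s hs x)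
      rw [map_mul, map_mul, map_inv, hfix k s hs] at h
      calc s * (x⁻¹ * φ k x) = x⁻¹ * (x * s * x⁻¹) * φ k x := by group
        _ = _ := by rw [← h]; group
    have hkey : ∀ S : Subgroup X, S.Normal → (∀ k, ∀ s ∈ S, φ k s = s) →
        Subgroup.centralizer (S : Set X) ≠ ⊤ → ∀ k x, φ k x = x := by
      intro S hS hfix hne k x
      refine fix_of_diff φ _ (hres _ hne fun k c hc => ?_) x (fun k => hdiff S hS hfix k x) k
      rw [Subgroup.mem_centralizer_iff] at hc ⊢
      intro s hs
      rw [← hfix k s hs, ← map_mul, hc s hs, map_mul]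
    -- the squares
    let S : Subgroup X := Subgroup.closure (Set.range fun x : X => x * x)
    have hsqS : ∀ x : X, x * x ∈ S := fun x => Subgroup.subset_closure ⟨x, rfl⟩
    have hStop : S ≠ ⊤ := by
      obtain ⟨m, hm⟩ := hX.exists_card_eq
      have hm0 : m ≠ 0 := fun h => by
        have := (Finite.one_lt_card_iff_nontrivial (α := X)).2 hnt
        rw [hm, h, pow_zero] at this; omega
      obtain ⟨H, hH⟩ := Sylow.exists_subgroup_card_pow_prime (G := X) 2 (n := m - 1)
        (hm ▸ pow_dvd_pow 2 (Nat.sub_le _ _))
      have hidx : H.index = 2 := by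
        have h := H.card_mul_index
        rw [hH, hm, show 2 ^ m = 2 ^ (m - 1) * 2 by rw [← pow_succ, Nat.sub_add_cancel (by omega)]] at h
        exact Nat.eq_of_mul_eq_mul_left (by positivity) h
      intro htop
      have hle : S ≤ H := (Subgroup.closure_le H).2 (by
        rintro _ ⟨x, rfl⟩; exact Subgroup.mul_self_mem_of_index_two hidx x)
      rw [htop, top_le_iff] at hle
      rw [hle, Subgroup.index_top] at hidx
      omega
    have hSinv : ∀ k, ∀ c ∈ S, φ k c ∈ S := fun k c hc => by
      have hle : S ≤ S.comap (φ k).toMonoidHom := (Subgroup.closure_le _).2 (by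
        rintro _ ⟨x, rfl⟩
        show φ k (x * x) ∈ S
        rw [map_mul]; exact hsqS _)
      exact hle hc
    have hSn : S.Normal := ⟨fun s hs g => by
      have hle : S ≤ S.comap (MulAut.conj g).toMonoidHom := (Subgroup.closure_le _).2 (by
        rintro _ ⟨x, rfl⟩
        show g * (x * x) * g⁻¹ ∈ S
        rw [show g * (x * x) * g⁻¹ = g * x * g⁻¹ * (g * x * g⁻¹) by group]; exact hsqS _)
      exact hle hs⟩
    have hSfix := hres S hStop hSinv
    by_cases hSC : Subgroup.centralizer (S : Set X) ≠ ⊤
    · exact hkey S hSn hSfix hSC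
    push Not at hSC
    have hSZ : S ≤ Subgroup.center X := Subgroup.centralizer_eq_top_iff_subset.1 hSC
    -- the involutions
    let I : Subgroup X := Subgroup.closure {x : X | x * x = 1}
    have hIfix : ∀ k, ∀ s ∈ I, φ k s = s := fun k s hs => by
      have hle : I ≤ fixed φ := (Subgroup.closure_le _).2 fun x hx k =>
        fix_small φ (fun x => x * x = 1) (fun k x => by
          rw [← map_mul, map_eq_one_iff _ (φ k).injective]) h4 k x hx
      exact hle hs k
    have hIn : I.Normal := ⟨fun s hs g => by
      have hle : I ≤ I.comap (MulAut.conj g).toMonoidHom := (Subgroup.closure_le _).2 fun x hx => by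
        have hx' : x * x = 1 := hx
        exact Subgroup.subset_closure (show g * x * g⁻¹ * (g * x * g⁻¹) = 1 by
          rw [show g * x * g⁻¹ * (g * x * g⁻¹) = g * (x * x) * g⁻¹ by group, hx', mul_one, mul_inv_cancel])
      exact hle hs⟩
    by_cases hIC : Subgroup.centralizer (I : Set X) ≠ ⊤
    · exact hkey I hIn hIfix hIC
    push Not at hIC
    have hIZ : I ≤ Subgroup.center X := Subgroup.centralizer_eq_top_iff_subset.1 hIC
    set Z := Subgroup.center X with hZdef
    have hinvZ : ∀ z : X, z * z = 1 → z ∈ Z := fun z hz => hIZ (Subgroup.subset_closure hz)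
    have hsqZ : ∀ x : X, x * x ∈ Z := fun x => hSZ (hsqS x)
    by_cases hZtop : Z = ⊤
    · -- abelian
      letI : CommGroup X :=
        { (inferInstance : Group X) with
          mul_comm := fun a b => (Subgroup.mem_center_iff.1 (hZtop ▸ Subgroup.mem_top b : b ∈ Z) a) }
      refine fixed_big φ ?_
      let sqh : X →* X := powMonoidHom 2
      have hle : sqh.range ≤ fixed φ := by
        rintro _ ⟨x, rfl⟩ k
        exact hSfix k _ (by show x ^ 2 ∈ S; rw [sq]; exact hsqS x)
      have hker : Nat.card sqh.ker ≤ 4 :=
        (Nat.card_le_card_of_injective (fun y : sqh.ker =>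
          (⟨(y : X), by rw [← sq]; exact y.2⟩ : {x : X // x * x = 1})) fun a b e =>
          Subtype.ext (congrArg (fun t : {x : X // x * x = 1} => t.1) e)).trans h4
      rw [← Subgroup.card_mul_index sqh.ker, Subgroup.index_ker]
      exact Nat.mul_le_mul hker (Subgroup.card_le_of_le hle)
    -- nonabelian
    have hZinv : ∀ k, ∀ c ∈ Z, φ k c ∈ Z := fun k c hc => by
      rw [Subgroup.mem_center_iff] at hc ⊢
      intro g
      obtain ⟨g', rfl⟩ := (φ k).surjective g
      rw [← map_mul, hc g', map_mul]
    have hZfix := hres Z hZtop hZinv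
    have hcZ : ∀ z ∈ Z, ∀ x : X, x * z = z * x := fun z hz x => Subgroup.mem_center_iff.1 hz x
    letI : CommGroup (X ⧸ Z) :=
      { (inferInstance : Group (X ⧸ Z)) with
        mul_comm := fun a b => by
          induction a using QuotientGroup.induction_on with
          | _ a =>
            induction b using QuotientGroup.induction_on with
            | _ b =>
              refine QuotientGroup.eq.2 ?_
              have h1 := mul_mem (mul_mem (hsqZ b⁻¹) (hsqZ (b * a⁻¹))) (hsqZ a)
              rwa [show b⁻¹ * b⁻¹ * (b * a⁻¹ * (b * a⁻¹)) * (a * a) = (a * b)⁻¹ * (b * a) * 1 by group,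
                mul_one] at h1 }
    letI : CommGroup Z :=
      { (inferInstance : Group Z) with mul_comm := fun a b => Subtype.ext (hcZ b b.2 a) }
    let R : Subgroup Z := (powMonoidHom 2 : Z →* Z).range
    let A := Z ⧸ R
    have hcardA : Nat.card A ≤ 4 := by
      have h1 := Subgroup.card_mul_index (powMonoidHom 2 : Z →* Z).ker
      rw [Subgroup.index_ker, ← Subgroup.card_mul_index R, mul_comm (Nat.card R)] at h1
      have h2 : Nat.card A = Nat.card (powMonoidHom 2 : Z →* Z).ker :=
        (Nat.eq_of_mul_eq_mul_right Nat.card_pos h1).symm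
      rw [h2]
      exact (Nat.card_le_card_of_injective (fun y : (powMonoidHom 2 : Z →* Z).ker =>
          (⟨((y : Z) : X), by
            have h := congrArg Subtype.val (MonoidHom.mem_ker.1 y.2)
            simpa [sq] using h⟩ : {x : X // x * x = 1})) fun a b e =>
          Subtype.ext (Subtype.ext (congrArg (fun t : {x : X // x * x = 1} => t.1) e))).trans h4
    let q₀ : X → A := fun x => ((⟨x * x, hsqZ x⟩ : Z) : A)
    have hR : ∀ z : Z, (((z * z : Z)) : A) = 1 := fun z =>
      (QuotientGroup.eq_one_iff _).2 ⟨z, by simp [sq]⟩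
    have hwd : ∀ a b : X, a⁻¹ * b ∈ Z → q₀ a = q₀ b := fun a b hab => by
      have e : (⟨b * b, hsqZ b⟩ : Z) = ⟨a * a, hsqZ a⟩ * (⟨a⁻¹ * b, hab⟩ * ⟨a⁻¹ * b, hab⟩) := by
        refine Subtype.ext ?_
        show b * b = a * a * (a⁻¹ * b * (a⁻¹ * b))
        calc b * b = a * ((a⁻¹ * b) * a) * (a⁻¹ * b) := by group
          _ = a * (a * (a⁻¹ * b)) * (a⁻¹ * b) := by rw [hcZ _ hab a]
          _ = _ := by group
      show ((⟨a * a, hsqZ a⟩ : Z) : A) = ((⟨b * b, hsqZ b⟩ : Z) : A)
      rw [e, QuotientGroup.mk_mul, hR, mul_one]
    let q : X ⧸ Z → A := fun w => Quotient.liftOn' w q₀ fun a b h => hwd a b (QuotientGroup.leftRel_apply.1 h)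
    have hq : ∀ x : X, q (x : X ⧸ Z) = q₀ x := fun x => rfl
    -- commutators
    let c : X → X → X := fun x y => y⁻¹ * x⁻¹ * y * x
    have hc : ∀ x y, c x y ∈ Z := fun x y => by
      have h1 := mul_mem (mul_mem (hsqZ y⁻¹) (hsqZ (y * x⁻¹))) (hsqZ x)
      rwa [show y⁻¹ * y⁻¹ * (y * x⁻¹ * (y * x⁻¹)) * (x * x) = c x y * 1 by simp only [c]; group,
        mul_one] at h1
    let cb : X → X → A := fun x y => ((⟨c x y, hc x y⟩ : Z) : A)
    have hpolar : ∀ x y, q₀ (x * y) = q₀ x * q₀ y * cb x y := fun x y => by
      show ((⟨x * y * (x * y), _⟩ : Z) : A) = _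
      simp only [q₀, cb, ← QuotientGroup.mk_mul]
      refine congrArg _ (Subtype.ext ?_)
      show x * y * (x * y) = x * x * (y * y) * c x y
      have hyx : y * x = x * y * c x y := by simp only [c]; group
      calc x * y * (x * y) = x * (y * x) * y := by group
        _ = x * (x * y * c x y) * y := by rw [hyx]
        _ = x * x * y * (c x y * y) := by group
        _ = x * x * y * (y * c x y) := by rw [hcZ _ (hc x y) y]
        _ = _ := by group
    have hbl : ∀ u v w, cb (u * v) w = cb u w * cb v w := fun u v w => by
      simp only [cb, ← QuotientGroup.mk_mul]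
      refine congrArg _ (Subtype.ext ?_)
      show c (u * v) w = c u w * c v w
      calc c (u * v) w = w⁻¹ * v⁻¹ * w * (c u w * v) := by simp only [c]; group
        _ = w⁻¹ * v⁻¹ * w * (v * c u w) := by rw [hcZ _ (hc u w) v]
        _ = c v w * c u w := by simp only [c]; group
        _ = _ := hcZ _ (hc u w) _
    have hA2 : ∀ a : A, a * a = 1 := fun a => by
      induction a using QuotientGroup.induction_on with
      | _ z => rw [← QuotientGroup.mk_mul]; exact hR z
    have hAi : ∀ a b : A, a * b * a = b := fun a b => by rw [mul_right_comm, hA2, one_mul]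
    have Q : Aniso q :=
      { sq := fun w => by
          induction w using QuotientGroup.induction_on with
          | _ x => exact (QuotientGroup.eq_one_iff (x * x)).2 (hsqZ x)
        sqA := hA2
        cardA := hcardA
        zero := fun w hw => by
          induction w using QuotientGroup.induction_on with
          | _ x =>
            rw [hq] at hw
            obtain ⟨z, hz⟩ := (QuotientGroup.eq_one_iff _).1 hw
            have hz' : (z : X) * z = x * x := by
              have := congrArg Subtype.val hz
              simpa [sq] using this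
            refine (QuotientGroup.eq_one_iff x).2 ?_
            have h1 : x * (z : X)⁻¹ ∈ Z := by
              refine hinvZ _ ?_
              calc x * (z : X)⁻¹ * (x * (z : X)⁻¹) = x * ((z : X)⁻¹ * x) * (z : X)⁻¹ := by group
                _ = x * (x * (z : X)⁻¹) * (z : X)⁻¹ := by rw [hcZ _ (inv_mem z.2) x]
                _ = x * x * ((z : X) * z)⁻¹ := by group
                _ = 1 := by rw [hz', mul_inv_cancel]
            simpa using mul_mem h1 z.2
        one := by
          show q₀ 1 = 1
          refine (QuotientGroup.eq_one_iff _).2 ?_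
          have e1 : (⟨(1 : X) * 1, hsqZ 1⟩ : Z) = 1 := Subtype.ext (mul_one 1)
          rw [e1]; exact one_mem R
        bilin := fun u v w => by
          induction u using QuotientGroup.induction_on with
          | _ u =>
            induction v using QuotientGroup.induction_on with
            | _ v =>
              induction w using QuotientGroup.induction_on with
              | _ w =>
                simp only [← QuotientGroup.mk_mul, hq]
                simp only [hpolar, hbl]
                calc q₀ u * q₀ v * cb u v * q₀ w * (cb u w * cb v w) * (q₀ u * q₀ v * cb u v) * q₀ w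
                    = (q₀ u * q₀ v * cb u v * q₀ w) * (cb u w * cb v w) * (q₀ u * q₀ v * cb u v * q₀ w) := by
                      ac_rfl
                  _ = cb u w * cb v w := hAi _ _
                  _ = ((q₀ u * q₀ w) * cb u w * (q₀ u * q₀ w)) * ((q₀ v * q₀ w) * cb v w * (q₀ v * q₀ w)) := by
                      rw [hAi, hAi]
                  _ = _ := by ac_rfl }
    -- the induced action
    have hmap : ∀ k, Z.map (φ k).toMonoidHom = Z := fun k => Subgroup.eq_of_le_of_card_ge
      (by rintro _ ⟨z, hz, rfl⟩; exact hZinv k z hz)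
      (Subgroup.card_map_of_injective (f := (φ k).toMonoidHom) (φ k).injective).ge
    let φb : K →* MulAut (X ⧸ Z) :=
      { toFun := fun k => QuotientGroup.congr Z Z (φ k) (hmap k)
        map_one' := by
          apply MulEquiv.ext
          intro w
          induction w using QuotientGroup.induction_on with
          | _ x => show ((φ 1 x : X) : X ⧸ Z) = (x : X ⧸ Z); rw [map_one, MulAut.one_apply]
        map_mul' := fun a b => by
          apply MulEquiv.ext
          intro w
          induction w using QuotientGroup.induction_on with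
          | _ x =>
            show ((φ (a * b) x : X) : X ⧸ Z) = ((φ a (φ b x) : X) : X ⧸ Z)
            rw [map_mul, MulAut.mul_apply] }
    have hφb : ∀ k w, q (φb k w) = q w := fun k w => by
      induction w using QuotientGroup.induction_on with
      | _ x =>
        show q₀ (φ k x) = q₀ x
        refine congrArg (fun z : Z => (z : A)) (Subtype.ext ?_)
        show φ k x * φ k x = x * x
        rw [← map_mul]; exact hZfix k _ (hsqZ x)
    obtain ⟨m, hm⟩ := (hX.to_quotient Z).exists_card_eq
    intro k x
    refine fix_of_diff φ Z hZfix x (fun k => ?_) k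
    exact QuotientGroup.eq.1 (Q.trivial_action φb hφb hm k (x : X ⧸ Z)).symm

theorem isSolvable_mulAut {X : Type u} [Group X] [Finite X] (hX : IsPGroup 2 X)
    (h : Nat.card {x : X // x * x = 1} ≤ 4) : Group.IsSolvable (MulAut X) := by
  classical
  haveI : Finite (MulAut X) := Finite.of_injective (fun f : MulAut X => (f : X → X)) DFunLike.coe_injective
  rw [Group.isSolvable_iff_commutator_lt]
  intro H hH
  refine lt_of_le_of_ne ?_ fun e => hH ?_
  · rw [Subgroup.commutator_le]
    intro a ha b hb
    exact mul_mem (mul_mem (mul_mem ha hb) (inv_mem ha)) (inv_mem hb)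
  · haveI : Group.IsPerfect H := Subgroup.isPerfect_iff.2 e
    rw [eq_bot_iff]
    intro f hf
    exact Subgroup.mem_bot.2 (MulEquiv.ext fun x => main _ X rfl hX h H H.subtype ⟨f, hf⟩ x)

end Cfsg.Agent.Lib.ThreeInvolAut
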